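import Mathlib
import Cfsg.Agent.TcChain36.Fi23.Class
import Cfsg.Agent.Lib.Fi22K7

/-!
# Two commuting transpositions of the presented `Fi₂₃`: their joint centralizer
-/

set_option autoImplicit false
set_option maxRecDepth 100000
set_option linter.all false

namespace Cfsg.Agent.Lib.Fi24J2.T23

open Cfsg Cfsg.Spor
open Cfsg.Agent.Lib.TcFacts Cfsg.Agent.Lib.TcBits Cfsg.Agent.Lib.TcPres Cfsg.Agent.Lib.PresChain36
open Cfsg.Agent.Lib.CentralConj36 Cfsg.Agent.Lib.DoubleCover36 Cfsg.Agent.Lib.ClassD36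
open Cfsg.Agent.TcChain36.Fi23 Cfsg.Spor.Fi23 Cfsg.Agent.TcData.Fi23 Cfsg.Agent.TcData.Fi23.I31671

/-- The group. -/
abbrev F23 := PresentedGroup Cfsg.Agent.TcData.Fi23.RR

/-- The letter. -/
noncomputable abbrev la : F23 := PresentedGroup.of Cfsg.Spor.Fi23.Gen.a

theorem hZ {h : F23} (hh : h ∈ HH) : h * zz = zz * h := hZc h hh

theorem la_mem : la ∈ HH := letter_mem Cfsg.Spor.Fi22.Gen.a

theorem la_comm : la * zz = zz * la := hZ la_mem

theorem la_sq : la * la = 1 := sq _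

theorem la_conj : IsConj zz la := hconj _ ⟨_, rfl⟩

theorem la_ne_zz : la ≠ zz := by
  intro h
  have h1 : lt Cfsg.Spor.Fi22.Gen.a = zH := Subtype.ext h
  have h2 := ψ_of Cfsg.Spor.Fi22.Gen.a
  rw [h1] at h2
  have h3 : ((zH : HH) : HH ⧸ Subgroup.zpowers zH) = 1 := (QuotientGroup.eq_one_iff _).2 (Subgroup.mem_zpowers _)
  rw [h3] at h2
  have h4 : (PresentedGroup.of Cfsg.Spor.Fi22.Gen.a : PresentedGroup Cfsg.Agent.TcData.Fi22.RR) = 1 :=
    ψ_bij.1 (h2.trans (map_one ψ).symm)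
  exact Cfsg.Agent.TcChain36.U62.aa_ne h4

theorem la_ne_one : la ≠ 1 := by
  intro h
  have := la_conj
  rw [h] at this
  exact zz_ne (isConj_one_left.mp this)

theorem cases3 (g : F23) :
    g ∈ HH ∨ ∃ i, ∃ h ∈ HH, g * zz * g⁻¹ = h * (tt i * zz * (tt i)⁻¹) * h⁻¹ := by
  rcases hcover' g with h0 | ⟨i, hi⟩
  · exact Or.inl (hstab g h0)
  · right
    obtain ⟨h, hh, he⟩ := hsound i _ hi
    have h3 : (h * tt i)⁻¹ * g ∈ HH := by
      apply hstab
      rw [map_mul, map_inv, Equiv.Perm.mul_apply, Equiv.Perm.inv_eq_iff_eq, map_mul,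
        Equiv.Perm.mul_apply, ht i, he]
    refine ⟨i, h, hh, ?_⟩
    set h' := (h * tt i)⁻¹ * g with hh'
    have h4 : g = h * tt i * h' := by rw [hh']; group
    rw [h4]
    have := hZ h3
    calc h * tt i * h' * zz * (h * tt i * h')⁻¹ = h * tt i * (h' * zz) * h'⁻¹ * (tt i)⁻¹ * h⁻¹ := by group
      _ = h * tt i * (zz * h') * h'⁻¹ * (tt i)⁻¹ * h⁻¹ := by rw [this]
      _ = h * (tt i * zz * (tt i)⁻¹) * h⁻¹ := by group

theorem cube0 : (zz * (tt 0 * zz * (tt 0)⁻¹)) ^ 3 = 1 := by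
  have h : PresentedGroup.mk RR ((Z * (T1 * Z * T1⁻¹)) ^ 3) = 1 :=
    faith _ (mem_ptStab_of_check hR hv (by decide +kernel))
  simpa [zz, tt] using h

theorem tt0_not : tt 0 ∉ HH := by
  intro h
  have h1 := hfix _ h
  rw [ht 0] at h1
  exact absurd h1 (by decide)

/-- The second representative. -/
noncomputable abbrev z1 : F23 := tt 1 * zz * (tt 1)⁻¹

theorem orbit_comm {g : F23} (hc : (g * zz * g⁻¹) * zz = zz * (g * zz * g⁻¹)) (hne : g * zz * g⁻¹ ≠ zz) :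
    ∃ h ∈ HH, g * zz * g⁻¹ = h * z1 * h⁻¹ := by
  rcases cases3 g with h | ⟨i, h, hh, he⟩
  · exfalso
    apply hne
    rw [hZ h]
    group
  · have hi : i = 1 := by
      by_contra hi
      have hi0 : i = 0 := by
        fin_cases i
        · rfl
        · exact absurd rfl hi
      subst hi0
      set y := tt 0 * zz * (tt 0)⁻¹ with hy
      have hyc : y * zz = zz * y := by
        have h1 : h⁻¹ * (g * zz * g⁻¹) * h = y := by rw [he]; group
        have hz := hZ hh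
        have hz' : h⁻¹ * zz = zz * h⁻¹ := by
          calc h⁻¹ * zz = h⁻¹ * (zz * h) * h⁻¹ := by group
            _ = h⁻¹ * (h * zz) * h⁻¹ := by rw [hz]
            _ = zz * h⁻¹ := by group
        rw [← h1]
        calc h⁻¹ * (g * zz * g⁻¹) * h * zz = h⁻¹ * (g * zz * g⁻¹) * (h * zz) := by group
          _ = h⁻¹ * (g * zz * g⁻¹) * (zz * h) := by rw [hz]
          _ = h⁻¹ * ((g * zz * g⁻¹) * zz) * h := by group
          _ = h⁻¹ * (zz * (g * zz * g⁻¹)) * h := by rw [hc]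
          _ = (h⁻¹ * zz) * (g * zz * g⁻¹) * h := by group
          _ = (zz * h⁻¹) * (g * zz * g⁻¹) * h := by rw [hz']
          _ = _ := by group
      have hy2 : y * y = 1 := by
        rw [hy]
        calc tt 0 * zz * (tt 0)⁻¹ * (tt 0 * zz * (tt 0)⁻¹) = tt 0 * (zz * zz) * (tt 0)⁻¹ := by group
          _ = 1 := by rw [zz_sq]; group
      have h2 : (zz * y) * (zz * y) = 1 := by
        calc zz * y * (zz * y) = zz * (y * zz) * y := by group
          _ = zz * (zz * y) * y := by rw [hyc]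
          _ = (zz * zz) * (y * y) := by group
          _ = 1 := by rw [zz_sq, hy2, one_mul]
      have h3 : zz * y = 1 := by
        have h4 : (zz * y) ^ 3 = 1 := cube0
        have h5 : (zz * y) ^ 3 = (zz * y) * (zz * y) * (zz * y) := by
          simp only [pow_succ, pow_zero, one_mul]
        rw [h5, h2, one_mul] at h4
        exact h4
      have h6 : y = zz := by
        calc y = (zz * zz) * y := by rw [zz_sq, one_mul]
          _ = zz * (zz * y) := by group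
          _ = zz := by rw [h3, mul_one]
      apply tt0_not
      apply hcomm
      rw [hy] at h6
      calc tt 0 * zz = (tt 0 * zz * (tt 0)⁻¹) * tt 0 := by group
        _ = zz * tt 0 := by rw [h6]
    subst hi
    exact ⟨h, hh, he⟩

/-- The standard form of a pair. -/
theorem pair23 {s t : F23} (hs : IsConj zz s) (ht' : IsConj zz t) (hc : s * t = t * s) (hne : s ≠ t) :
    ∃ v, v * s * v⁻¹ = zz ∧ v * t * v⁻¹ = la := by
  obtain ⟨g, hg⟩ := isConj_iff.1 hs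
  obtain ⟨u, hu⟩ := isConj_iff.1 ht'
  obtain ⟨w, hw⟩ := isConj_iff.1 la_conj
  subst hg
  subst hu
  have e1 : (g⁻¹ * u) * zz * (g⁻¹ * u)⁻¹ = g⁻¹ * (u * zz * u⁻¹) * g := by group
  have hl : ∃ h ∈ HH, la = h * z1 * h⁻¹ := by
    have := orbit_comm (g := w) (by rw [hw]; exact la_comm) (by rw [hw]; exact la_ne_zz)
    rwa [hw] at this
  obtain ⟨h', hh', hl⟩ := hl
  obtain ⟨h, hh, hr⟩ := orbit_comm (g := g⁻¹ * u) (by
      rw [e1]
      have h1 : g⁻¹ * (g * zz * g⁻¹) * g = zz := by group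
      calc g⁻¹ * (u * zz * u⁻¹) * g * zz = g⁻¹ * (u * zz * u⁻¹) * g * (g⁻¹ * (g * zz * g⁻¹) * g) := by rw [h1]
        _ = g⁻¹ * ((u * zz * u⁻¹) * (g * zz * g⁻¹)) * g := by group
        _ = g⁻¹ * ((g * zz * g⁻¹) * (u * zz * u⁻¹)) * g := by rw [hc]
        _ = (g⁻¹ * (g * zz * g⁻¹) * g) * (g⁻¹ * (u * zz * u⁻¹) * g) := by group
        _ = _ := by rw [h1]) (by
      rw [e1]
      intro h
      apply hne
      calc g * zz * g⁻¹ = g * (g⁻¹ * (u * zz * u⁻¹) * g) * g⁻¹ := by rw [h]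
        _ = _ := by group)
  rw [e1] at hr
  refine ⟨h' * h⁻¹ * g⁻¹, ?_, ?_⟩
  · have h1 : h⁻¹ ∈ HH := HH.inv_mem hh
    have h2 : h' * h⁻¹ ∈ HH := HH.mul_mem hh' h1
    have h3 := hZ h2
    calc h' * h⁻¹ * g⁻¹ * (g * zz * g⁻¹) * (h' * h⁻¹ * g⁻¹)⁻¹ = (h' * h⁻¹) * zz * (h' * h⁻¹)⁻¹ := by group
      _ = zz := by rw [h3]; group
  · rw [hl]
    calc h' * h⁻¹ * g⁻¹ * (u * zz * u⁻¹) * (h' * h⁻¹ * g⁻¹)⁻¹
        = h' * h⁻¹ * (g⁻¹ * (u * zz * u⁻¹) * g) * h * h'⁻¹ := by group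
      _ = h' * h⁻¹ * (h * z1 * h⁻¹) * h * h'⁻¹ := by rw [hr]
      _ = _ := by group

/-- The joint centralizer. -/
noncomputable def T3 : Subgroup F23 := HH ⊓ Subgroup.centralizer ({la} : Set F23)

theorem mem_T3 {c : F23} : c ∈ T3 ↔ c ∈ HH ∧ c * la = la * c := by
  rw [T3, Subgroup.mem_inf, Subgroup.mem_centralizer_singleton_iff]

/-- The group `Fi₂₂`. -/
abbrev Gq := Cfsg.Agent.Lib.Fi22K.Gq

/-- The isomorphism with `Fi₂₂`. -/
noncomputable def ψe : Gq ≃* (HH ⧸ Subgroup.zpowers zH) := MulEquiv.ofBijective ψ ψ_bij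

/-- The projection to `Fi₂₂`. -/
noncomputable def π₀ : HH →* Gq := ψe.symm.toMonoidHom.comp (QuotientGroup.mk' (Subgroup.zpowers zH))

/-- The letter of `Fi₂₂`. -/
noncomputable abbrev a22 : Gq := PresentedGroup.of Cfsg.Spor.Fi22.Gen.a

theorem π₀_mk (h : HH) : ψ (π₀ h) = ((h : HH) : HH ⧸ Subgroup.zpowers zH) := by
  show ψe (ψe.symm _) = _
  rw [MulEquiv.apply_symm_apply]
  rfl

theorem π₀_la : π₀ ⟨la, la_mem⟩ = a22 := by
  apply ψ_bij.1
  rw [π₀_mk, ψ_of]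
  rfl

theorem π₀_surj : Function.Surjective π₀ := by
  intro g
  obtain ⟨h, hh⟩ := QuotientGroup.mk_surjective (ψ g)
  refine ⟨h, ψ_bij.1 ?_⟩
  rw [π₀_mk, hh]

theorem zp_coe {h : HH} : h ∈ Subgroup.zpowers zH ↔ (h : F23) ∈ Subgroup.zpowers zz := by
  constructor
  · intro hh
    obtain ⟨k, rfl⟩ := Subgroup.mem_zpowers_iff.1 hh
    exact Subgroup.mem_zpowers_iff.2 ⟨k, rfl⟩
  · intro hh
    obtain ⟨k, hk⟩ := Subgroup.mem_zpowers_iff.1 hh
    refine Subgroup.mem_zpowers_iff.2 ⟨k, Subtype.ext ?_⟩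
    exact hk

theorem π₀_one {h : HH} : π₀ h = 1 ↔ (h : F23) ∈ Subgroup.zpowers zz := by
  rw [← zp_coe, ← QuotientGroup.eq_one_iff, ← π₀_mk]
  constructor
  · intro h1
    rw [h1, map_one]
  · intro h1
    exact ψ_bij.1 (h1.trans (map_one ψ).symm)

/-- The centralizer of a transposition of `Fi₂₂`. -/
noncomputable abbrev W : Subgroup Gq := Subgroup.centralizer ({a22} : Set Gq)

theorem W_cover : IsNonsplitDoubleCover W (Cfsg.PSU 6 Cfsg.Agent.Lib.F4K.K4 2) :=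
  Cfsg.Agent.Lib.Fi22K.cover_iso (e := MulEquiv.refl Gq) (D := Cfsg.Agent.Lib.Fi22K.D0) (by simp) (d := a22) (IsConj.refl _)

theorem T3_le_HH {c : F23} (hc : c ∈ T3) : c ∈ HH := (mem_T3.1 hc).1

/-- The projection of the joint centralizer. -/
noncomputable def π₃ : T3 →* W :=
  MonoidHom.mk' (fun c => ⟨π₀ ⟨c, T3_le_HH c.2⟩, by
    rw [Subgroup.mem_centralizer_singleton_iff, ← π₀_la, ← map_mul, ← map_mul]
    congr 1
    apply Subtype.ext
    exact (mem_T3.1 c.2).2⟩) (by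
    intro u v
    apply Subtype.ext
    show π₀ _ = π₀ _ * π₀ _
    rw [← map_mul]
    rfl)

theorem π₃_coe (c : T3) : ((π₃ c : W) : Gq) = π₀ ⟨c, T3_le_HH c.2⟩ := rfl

theorem π₃_one {c : T3} : π₃ c = 1 ↔ (c : F23) ∈ Subgroup.zpowers zz := by
  rw [← π₀_one (h := ⟨c, T3_le_HH c.2⟩), ← π₃_coe]
  constructor
  · intro h
    rw [h]
    rfl
  · intro h
    exact Subtype.ext h

theorem la_T3 : la ∈ T3 := mem_T3.2 ⟨la_mem, rfl⟩

theorem zz_T3 : zz ∈ T3 := mem_T3.2 ⟨zz_mem, la_comm.symm⟩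

theorem π₃_la : π₃ ⟨la, la_T3⟩ ≠ 1 := by
  intro h
  rw [π₃_one] at h
  obtain ⟨k, hk⟩ := Subgroup.mem_zpowers_iff.1 h
  rcases Int.even_or_odd' k with ⟨m, rfl | rfl⟩
  · rw [zpow_mul, zpow_two, zz_sq, one_zpow] at hk
    exact la_ne_one hk.symm
  · rw [zpow_add, zpow_mul, zpow_two, zz_sq, one_zpow, one_mul, zpow_one] at hk
    exact la_ne_zz hk.symm

theorem π₃_surj (hf : ∀ x ∈ HH, x * la * x⁻¹ ≠ la * zz) : Function.Surjective π₃ := by
  rintro ⟨w, hw⟩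
  rw [Subgroup.mem_centralizer_singleton_iff] at hw
  obtain ⟨c, rfl⟩ := π₀_surj w
  have h1 : π₀ (c * ⟨la, la_mem⟩ * c⁻¹ * (⟨la, la_mem⟩ : HH)⁻¹) = 1 := by
    simp only [map_mul, map_inv, π₀_la]
    rw [hw]
    group
  rw [π₀_one] at h1
  obtain ⟨k, hk⟩ := Subgroup.mem_zpowers_iff.1 h1
  have h2 : (c : F23) * la * (c : F23)⁻¹ * la⁻¹ = zz ^ k := hk.symm
  have hc : (c : F23) * la = la * (c : F23) := by
    rcases Int.even_or_odd' k with ⟨m, rfl | rfl⟩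
    · rw [zpow_mul, zpow_two, zz_sq, one_zpow] at h2
      have h3 := mul_inv_eq_one.1 h2
      rw [mul_inv_eq_iff_eq_mul] at h3
      exact h3
    · exfalso
      rw [zpow_add, zpow_mul, zpow_two, zz_sq, one_zpow, one_mul, zpow_one] at h2
      apply hf c c.2
      rw [mul_inv_eq_iff_eq_mul] at h2
      rw [h2, la_comm]
  refine ⟨⟨c, mem_T3.2 ⟨c.2, hc⟩⟩, ?_⟩
  apply Subtype.ext
  rfl

end Cfsg.Agent.Lib.Fi24J2.T23
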